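/-
Simplicity criteria for permutation groups: a Frattini argument at a prime, and induction from a point stabiliser.
-/
import Mathlib

set_option autoImplicit false

namespace CfsgLib.Simple

open scoped Pointwise

section frattini

variable {G : Type*} [Group G]

theorem conj_pow_zpow (h s : G) (k : ℤ) (hk : h * s * h⁻¹ = s ^ k) (j : ℕ) :
    h ^ j * s * (h ^ j)⁻¹ = s ^ (k ^ j) := by
  induction j with
  | zero => simp
  | succ j ih =>
    have h1 : h ^ (j + 1) * s * (h ^ (j + 1))⁻¹ = h ^ j * (h * s * h⁻¹) * (h ^ j)⁻¹ := by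
      rw [pow_succ]; group
    rw [h1, hk, ← conj_zpow, ih, ← zpow_mul, pow_succ]

variable [Finite G]

/-- Frattini argument at a prime `p` dividing the order of the group exactly once, with a
self-centralising subgroup of order `p`. -/
theorem pow_mem_of_frattini {p : ℕ} [hp : Fact p.Prime] (s : G) (hs : orderOf s = p)
    (hp2 : ¬ p ^ 2 ∣ Nat.card G) (hcent : ∀ g : G, Commute g s → g ∈ Subgroup.zpowers s)
    (N : Subgroup G) [hN : N.Normal] (hdvd : p ∣ Nat.card N) (g : G) : g ^ (p - 1) ∈ N := by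
  classical
  have hcardP : Nat.card (Subgroup.zpowers s) = p := by rw [Nat.card_zpowers, hs]
  have hdG : p ∣ Nat.card G := hs ▸ orderOf_dvd_natCard s
  have hG0 : Nat.card G ≠ 0 := Nat.card_pos.ne'
  have hfac : (Nat.card G).factorization p = 1 := by
    have h1 : 1 ≤ (Nat.card G).factorization p := by
      have := (hp.out.dvd_iff_one_le_factorization hG0).mp hdG
      exact this
    have h2 : ¬ 2 ≤ (Nat.card G).factorization p := by
      intro h3
      exact hp2 ((hp.out.pow_dvd_iff_le_factorization hG0).mpr h3)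
    omega
  let PS : Sylow p G := Sylow.ofCard (Subgroup.zpowers s) (by rw [hcardP, hfac, pow_one])
  obtain ⟨a, ha⟩ := exists_prime_orderOf_dvd_card' p hdvd
  have ha' : orderOf (a : G) = p := by rw [Subgroup.orderOf_coe, ha]
  have hcardQ : Nat.card (Subgroup.zpowers (a : G)) = p := by rw [Nat.card_zpowers, ha']
  let QS : Sylow p G := Sylow.ofCard (Subgroup.zpowers (a : G)) (by rw [hcardQ, hfac, pow_one])
  have hQN : (QS : Subgroup G) ≤ N := by
    have : (QS : Subgroup G) = Subgroup.zpowers (a : G) := rfl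
    rw [this, Subgroup.zpowers_le]
    exact a.2
  obtain ⟨c, hc⟩ := MulAction.exists_smul_eq G QS PS
  have hPN : (PS : Subgroup G) ≤ N := by
    intro x hx
    have h1 : x ∈ ((c • QS : Sylow p G) : Subgroup G) := by rw [hc]; exact hx
    have h1' : x ∈ MulAut.conj c • (QS : Subgroup G) := h1
    obtain ⟨y, hy, rfl⟩ := (Subgroup.mem_smul_pointwise_iff_exists x _ _).mp h1'
    have h2 := hN.conj_mem y (hQN hy) c
    exact h2
  have hPeq : (PS : Subgroup G) = Subgroup.zpowers s := rfl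
  have hsup := Sylow.normalizer_sup_eq_top' PS hPN
  have hg : g ∈ (Subgroup.normalizer (PS : Set G) ⊔ N : Subgroup G) := by rw [hsup]; trivial
  rw [← SetLike.mem_coe, Subgroup.mul_normal] at hg
  obtain ⟨h, hh, n, hn, rfl⟩ := Set.mem_mul.mp hg
  have hsP : s ∈ (PS : Subgroup G) := by rw [hPeq]; exact Subgroup.mem_zpowers s
  have h1 : h * s * h⁻¹ ∈ Subgroup.zpowers s := by
    rw [← hPeq]
    exact (Subgroup.mem_normalizer_iff.mp hh s).mp hsP
  obtain ⟨k, hk⟩ := Subgroup.mem_zpowers_iff.mp h1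
  have hk' : h * s * h⁻¹ = s ^ k := hk.symm
  have hcop : IsCoprime k (p : ℤ) := by
    apply IsCoprime.symm
    apply (Nat.prime_iff_prime_int.mp hp.out).coprime_iff_not_dvd.mpr
    intro hd
    have h2 : s ^ k = 1 := by
      rw [← hs] at hd
      exact orderOf_dvd_iff_zpow_eq_one.mp hd
    rw [h2] at hk'
    have h3 : s = 1 := by
      have : s = h⁻¹ * (h * s * h⁻¹) * h := by group
      rw [this, hk']; group
    rw [h3, orderOf_one] at hs
    exact hp.out.one_lt.ne hs
  have hferm := Int.ModEq.pow_card_sub_one_eq_one hp.out hcop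
  have h2 := conj_pow_zpow h s k hk' (p - 1)
  have h3 : s ^ (k ^ (p - 1)) = s := by
    have : s ^ (k ^ (p - 1)) = s ^ (1 : ℤ) := by
      rw [zpow_eq_zpow_iff_modEq, hs]
      exact hferm
    rw [this, zpow_one]
  rw [h3] at h2
  have h4 : Commute (h ^ (p - 1)) s := by
    have : h ^ (p - 1) * s = s * h ^ (p - 1) := by
      calc h ^ (p - 1) * s = (h ^ (p - 1) * s * (h ^ (p - 1))⁻¹) * h ^ (p - 1) := by group
        _ = s * h ^ (p - 1) := by rw [h2]
    exact this
  have h5 : h ^ (p - 1) ∈ N := hPN (by rw [hPeq]; exact hcent _ h4)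
  have h6 : ((h * n) ^ (p - 1) : G) ∈ N := by
    rw [← QuotientGroup.eq_one_iff] at h5 ⊢
    have h7 : ((n : G) : G ⧸ N) = 1 := (QuotientGroup.eq_one_iff n).mpr hn
    simp only [QuotientGroup.mk_pow, QuotientGroup.mk_mul, h7, mul_one] at h5 ⊢
    exact h5
  exact h6

end frattini

section perm

variable {α : Type*}

/-- A non-trivial normal subgroup of a doubly transitive group moves some point. -/
theorem exists_moved {K : Subgroup (Equiv.Perm α)} {S : Set α}
    (hfaith : ∀ g ∈ K, (∀ x ∈ S, g x = x) → g = 1) {N : Subgroup K} (hne : N ≠ ⊥) :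
    ∃ n ∈ N, ∃ a ∈ S, ((n : K) : Equiv.Perm α) a ≠ a := by
  obtain ⟨n, hn, hn1⟩ := (Subgroup.bot_or_exists_ne_one N).resolve_left hne
  refine ⟨n, hn, ?_⟩
  by_contra hcon
  simp only [not_exists, not_and, not_not] at hcon
  exact hn1 (Subtype.ext (hfaith _ n.2 hcon))

/-- A non-trivial normal subgroup of a doubly transitive group is transitive. -/
theorem normal_trans {K : Subgroup (Equiv.Perm α)} {S : Set α}
    (hfaith : ∀ g ∈ K, (∀ x ∈ S, g x = x) → g = 1) (hinv : ∀ g ∈ K, ∀ x ∈ S, g x ∈ S)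
    (h2 : ∀ a b y z, a ∈ S → b ∈ S → y ∈ S → z ∈ S → a ≠ b → y ≠ z → ∃ g ∈ K, g a = y ∧ g b = z)
    {N : Subgroup K} (hN : N.Normal) (hne : N ≠ ⊥) {y z : α} (hy : y ∈ S) (hz : z ∈ S) :
    ∃ n ∈ N, ((n : K) : Equiv.Perm α) y = z := by
  by_cases hyz : y = z
  · exact ⟨1, N.one_mem, by simp [hyz]⟩
  obtain ⟨n, hn, a, ha, hna⟩ := exists_moved hfaith hne
  obtain ⟨g, hg, hga, hgb⟩ := h2 a (((n : K) : Equiv.Perm α) a) y z ha (hinv _ n.2 a ha) hy hz (Ne.symm hna) hyz
  refine ⟨⟨g, hg⟩ * n * ⟨g, hg⟩⁻¹, hN.conj_mem n hn _, ?_⟩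
  simp only [Subgroup.coe_mul, Subgroup.coe_inv, Equiv.Perm.mul_apply]
  rw [← hga]
  simp [hgb]

theorem ncard_dvd_of_trans {K : Subgroup (Equiv.Perm α)} {S : Set α} {N : Subgroup K} {x0 : α}
    (hS : ∀ n ∈ N, ((n : K) : Equiv.Perm α) x0 ∈ S) (ht : ∀ y ∈ S, ∃ n ∈ N, ((n : K) : Equiv.Perm α) x0 = y) :
    S.ncard ∣ Nat.card N := by
  have h1 : MulAction.orbit N x0 = S := by
    ext y
    constructor
    · rintro ⟨n, rfl⟩
      exact hS _ n.2
    · intro hy
      obtain ⟨n, hn, rfl⟩ := ht y hy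
      exact ⟨⟨n, hn⟩, rfl⟩
  rw [← h1, ← MulAction.index_stabilizer]
  exact Subgroup.index_dvd_card _

variable [Finite α]

/-- Simplicity from a Frattini argument at a prime. -/
theorem simple_of_frattini {K : Subgroup (Equiv.Perm α)} {S : Set α} {x0 : α} (hx0 : x0 ∈ S)
    (hfaith : ∀ g ∈ K, (∀ x ∈ S, g x = x) → g = 1) (hinv : ∀ g ∈ K, ∀ x ∈ S, g x ∈ S)
    (h2 : ∀ a b y z, a ∈ S → b ∈ S → y ∈ S → z ∈ S → a ≠ b → y ≠ z → ∃ g ∈ K, g a = y ∧ g b = z)
    {p : ℕ} [hp : Fact p.Prime] (hpS : p ∣ S.ncard) (s : K) (hs : orderOf s = p)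
    (hp2 : ¬ p ^ 2 ∣ Nat.card K) (hcent : ∀ g : K, Commute g s → g ∈ Subgroup.zpowers s)
    (hgen : ∀ N : Subgroup K, N.Normal → (∀ g : K, g ^ (p - 1) ∈ N) → N = ⊤) : IsSimpleGroup K := by
  have hnt : Nontrivial K := by
    refine ⟨s, 1, ?_⟩
    intro h
    rw [h, orderOf_one] at hs
    exact hp.out.one_lt.ne hs
  refine ⟨fun N hN => ?_⟩
  by_cases hne : N = ⊥
  · exact Or.inl hne
  right
  have hd : S.ncard ∣ Nat.card N :=
    ncard_dvd_of_trans (x0 := x0) (fun n _ => hinv _ n.2 _ hx0)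
      (fun y hy => normal_trans hfaith hinv h2 hN hne hx0 hy)
  exact hgen N hN (fun g => pow_mem_of_frattini s hs hp2 hcent N (hpS.trans hd) g)

/-- Simplicity from a simple point stabiliser. -/
theorem simple_of_stab {K : Subgroup (Equiv.Perm α)} {S : Set α} {x0 : α} (hx0 : x0 ∈ S)
    (hfaith : ∀ g ∈ K, (∀ x ∈ S, g x = x) → g = 1) (hinv : ∀ g ∈ K, ∀ x ∈ S, g x ∈ S)
    (h2 : ∀ a b y z, a ∈ S → b ∈ S → y ∈ S → z ∈ S → a ≠ b → y ≠ z → ∃ g ∈ K, g a = y ∧ g b = z)
    (h3 : ∀ y z w, y ∈ S → z ∈ S → w ∈ S → y ≠ x0 → z ≠ x0 → w ≠ x0 → z ≠ y → w ≠ y →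
      ∃ g ∈ K, g x0 = x0 ∧ g y = y ∧ g z = w)
    (hsimple : IsSimpleGroup ↥(K ⊓ MulAction.stabilizer (Equiv.Perm α) x0))
    (hnot2 : ¬ ∃ k : ℕ, S.ncard = 2 ^ k) (h4 : 4 ≤ S.ncard) : IsSimpleGroup K := by
  classical
  have hle : K ⊓ MulAction.stabilizer (Equiv.Perm α) x0 ≤ K := inf_le_left
  have hnt : Nontrivial K := by
    obtain ⟨a, ha⟩ := exists_ne (1 : ↥(K ⊓ MulAction.stabilizer (Equiv.Perm α) x0))
    refine ⟨⟨a.1, a.2.1⟩, 1, ?_⟩
    intro h
    apply ha
    apply Subtype.ext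
    exact congrArg (fun x : K => (x : Equiv.Perm α)) h
  refine ⟨fun N hN => ?_⟩
  by_cases hne : N = ⊥
  · exact Or.inl hne
  right
  have hSfin : S.Finite := Set.toFinite S
  have htr : ∀ {y z : α}, y ∈ S → z ∈ S → ∃ n ∈ N, ((n : K) : Equiv.Perm α) y = z :=
    fun hy hz => normal_trans hfaith hinv h2 hN hne hy hz
  let ι : ↥(K ⊓ MulAction.stabilizer (Equiv.Perm α) x0) →* ↥K := Subgroup.inclusion hle
  have hN' : (N.comap ι).Normal := hN.comap ι
  rcases hsimple.eq_bot_or_eq_top_of_normal _ hN' with hb | ht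
  · -- `N` acts regularly
    exfalso
    have hreg : ∀ n ∈ N, ((n : K) : Equiv.Perm α) x0 = x0 → n = 1 := by
      intro n hn hnx
      have h5 : (⟨n.1, ⟨n.2, hnx⟩⟩ : ↥(K ⊓ MulAction.stabilizer (Equiv.Perm α) x0)) ∈ N.comap ι := hn
      rw [hb] at h5
      have h6 := (Subgroup.mem_bot.mp h5)
      apply Subtype.ext
      exact congrArg (fun x : ↥(K ⊓ MulAction.stabilizer (Equiv.Perm α) x0) => (x : Equiv.Perm α)) h6
    have hexp : ∀ a ∈ N, a * a = 1 := by
      intro a ha
      by_contra hne1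
      have hane : a ≠ 1 := by
        rintro rfl
        exact hne1 (mul_one 1)
      have hax : ((a : K) : Equiv.Perm α) x0 ≠ x0 := fun h => hane (hreg a ha h)
      have ha2x : ((a * a : K) : Equiv.Perm α) x0 ≠ x0 := fun h => hne1 (hreg _ (N.mul_mem ha ha) h)
      set y := ((a : K) : Equiv.Perm α) x0 with hy
      set z := ((a * a : K) : Equiv.Perm α) x0 with hz
      have hyS : y ∈ S := hinv _ a.2 _ hx0
      have hzS : z ∈ S := hinv _ (a * a).2 _ hx0
      have hzy : z ≠ y := by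
        intro h
        have h5 : ((a : K) : Equiv.Perm α) y = ((a : K) : Equiv.Perm α) x0 := by
          have : ((a * a : K) : Equiv.Perm α) x0 = ((a : K) : Equiv.Perm α) y := rfl
          rw [← this, ← hz, h]
        exact hax (((a : K) : Equiv.Perm α).injective h5 ▸ rfl)
      -- a fourth point
      obtain ⟨w, hwS, hw⟩ : ∃ w ∈ S, w ∉ ({x0, y, z} : Set α) := by
        by_contra hcon
        simp only [not_exists, not_and, not_not] at hcon
        have h5 : S ⊆ ({x0, y, z} : Set α) := fun x hx => hcon x hx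
        have h6 := Set.ncard_le_ncard h5 (Set.toFinite _)
        have h7 : ({x0, y, z} : Set α).ncard ≤ 3 := by
          have h8 := Set.ncard_insert_le x0 ({y, z} : Set α)
          have h9 := Set.ncard_insert_le y ({z} : Set α)
          rw [Set.ncard_singleton] at h9
          omega
        omega
      simp only [Set.mem_insert_iff, Set.mem_singleton_iff, not_or] at hw
      obtain ⟨hw0, hwy, hwz⟩ := hw
      obtain ⟨g, hg, hg0, hgy, hgz⟩ := h3 y z w hyS hzS hwS hax ha2x hw0 hzy hwy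
      let G' : K := ⟨g, hg⟩
      have hc : G' * a * G'⁻¹ ∈ N := hN.conj_mem a ha G'
      have hg0' : g⁻¹ x0 = x0 := by rw [Equiv.Perm.inv_eq_iff_eq]; exact hg0.symm
      have hcx : ((G' * a * G'⁻¹ : K) : Equiv.Perm α) x0 = ((a : K) : Equiv.Perm α) x0 := by
        change g (((a : K) : Equiv.Perm α) (g⁻¹ x0)) = y
        rw [hg0', ← hy, hgy]
      have heq : G' * a * G'⁻¹ = a := by
        have h5 : a⁻¹ * (G' * a * G'⁻¹) = 1 := by
          apply hreg _ (N.mul_mem (N.inv_mem ha) hc)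
          change ((a : K) : Equiv.Perm α)⁻¹ (((G' * a * G'⁻¹ : K) : Equiv.Perm α) x0) = x0
          rw [hcx]
          simp
        have h6 : a * (a⁻¹ * (G' * a * G'⁻¹)) = a * 1 := by rw [h5]
        simpa using h6
      have h5 : ((G' * (a * a) * G'⁻¹ : K) : Equiv.Perm α) x0 = w := by
        change g (((a * a : K) : Equiv.Perm α) (g⁻¹ x0)) = w
        rw [hg0', ← hz, hgz]
      have h6 : G' * (a * a) * G'⁻¹ = a * a := by
        have : G' * (a * a) * G'⁻¹ = (G' * a * G'⁻¹) * (G' * a * G'⁻¹) := by group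
        rw [this, heq]
      rw [h6] at h5
      exact hwz h5.symm
    -- `N` is a 2-group of order `|S|`
    have hpg : IsPGroup 2 N := by
      intro x
      refine ⟨1, ?_⟩
      apply Subtype.ext
      simp only [pow_one, Subgroup.coe_pow, Subgroup.coe_one]
      have := hexp x x.2
      rw [pow_two]
      exact this
    obtain ⟨k, hk⟩ := IsPGroup.iff_card.mp hpg
    apply hnot2
    refine ⟨k, ?_⟩
    rw [← hk]
    -- regular action
    have hbij : Nat.card N = S.ncard := by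
      have h1 : MulAction.orbit N x0 = S := by
        ext y
        constructor
        · rintro ⟨n, rfl⟩
          exact hinv _ n.1.2 _ hx0
        · intro hy
          obtain ⟨n, hn, rfl⟩ := htr hx0 hy
          exact ⟨⟨n, hn⟩, rfl⟩
      have h2' : MulAction.stabilizer N x0 = ⊥ := by
        rw [eq_bot_iff]
        intro n hn
        have h3' : ((n.1 : K) : Equiv.Perm α) x0 = x0 := hn
        have h4' := hreg n.1 n.2 h3'
        exact Subgroup.mem_bot.mpr (Subtype.ext h4')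
      have h5 := MulAction.index_stabilizer N x0
      rw [h2', Subgroup.index_bot, h1] at h5
      exact h5
    exact hbij.symm
  · -- `N` contains the point stabiliser
    rw [eq_top_iff]
    intro g _
    obtain ⟨n, hn, hnx⟩ := htr hx0 (hinv _ g.2 _ hx0)
    have h5 : n⁻¹ * g ∈ N := by
      have hst : ((n⁻¹ * g : K) : Equiv.Perm α) ∈ MulAction.stabilizer (Equiv.Perm α) x0 := by
        change ((n : K) : Equiv.Perm α)⁻¹ (((g : K) : Equiv.Perm α) x0) = x0
        rw [← hnx]
        simp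
      have h6 : (⟨(n⁻¹ * g).1, ⟨(n⁻¹ * g).2, hst⟩⟩ : ↥(K ⊓ MulAction.stabilizer (Equiv.Perm α) x0)) ∈ N.comap ι := by
        rw [ht]; trivial
      exact h6
    have h6 : g = n * (n⁻¹ * g) := by group
    rw [h6]
    exact N.mul_mem hn h5

end perm

end CfsgLib.Simple
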