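/-
Transfer of simplicity along conjugation.
-/
import Mathlib

set_option autoImplicit false

namespace CfsgLib.Simple

variable {α : Type*}

/-- A subgroup of a subgroup of permutations which is conjugate to a simple group is simple. -/
theorem simple_transfer {K : Subgroup (Equiv.Perm α)} (A : Subgroup K) (B : Subgroup (Equiv.Perm α))
    (h : Equiv.Perm α) (hf : ∀ a : K, a ∈ A → h * (a : Equiv.Perm α) * h⁻¹ ∈ B)
    (hb : ∀ b ∈ B, ∃ a : K, a ∈ A ∧ h * (a : Equiv.Perm α) * h⁻¹ = b) (hB : IsSimpleGroup B) :
    IsSimpleGroup A := by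
  let f : A →* B :=
    { toFun := fun a => ⟨h * ((a : K) : Equiv.Perm α) * h⁻¹, hf a a.2⟩
      map_one' := by
        apply Subtype.ext
        simp
      map_mul' := by
        intro a b
        apply Subtype.ext
        simp only [Subgroup.coe_mul]
        group }
  have hinj : Function.Injective f := by
    intro a b hab
    have h1 : h * ((a : K) : Equiv.Perm α) * h⁻¹ = h * ((b : K) : Equiv.Perm α) * h⁻¹ := congrArg Subtype.val hab
    have h2 : ((a : K) : Equiv.Perm α) = ((b : K) : Equiv.Perm α) := by
      simpa using h1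
    exact Subtype.ext (Subtype.ext h2)
  have hsurj : Function.Surjective f := by
    rintro ⟨b, hb'⟩
    obtain ⟨a, ha, rfl⟩ := hb b hb'
    exact ⟨⟨a, ha⟩, rfl⟩
  exact (MulEquiv.ofBijective f ⟨hinj, hsurj⟩).isSimpleGroup

end CfsgLib.Simple
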